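import Cfsg.Agent.Char.Brauer
import Cfsg.Agent.Char.Ker
import Cfsg.Agent.FG.Frattini

/-!
# Burnside's `p^a q^b` theorem
-/

set_option autoImplicit false
set_option linter.unusedSectionVars false

open scoped ComplexConjugate
open Cfsg CA.FG

namespace CA.Chr

universe u

variable {G : Type u} [Group G] [Finite G]

theorem prod_gen_int' {χ : G → ℂ} (hχ : χ ∈ ZIrr G) (x : G) [NeZero (Nat.card G)] :
    ∃ n : ℤ, ∏ k : (ZMod (Nat.card G))ˣ, χ (x ^ (k : ZMod (Nat.card G)).val) = n := by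
  refine int_of_aut_fixed (IsIntegral.prod _ fun k _ => ZIrr.isIntegral hχ _) fun σ => ?_
  obtain ⟨j, hj, hσ⟩ := aut_exists_pow (σ : ℂ →+* ℂ) (n := Nat.card G) (NeZero.ne _)
  rw [map_prod]
  refine Fintype.prod_equiv (Equiv.mulRight (ZMod.unitOfCoprime j hj)) _ _ fun k => ?_
  have h1 := ZIrr.map_apply hχ (σ : ℂ →+* ℂ) (g := x ^ (k : ZMod (Nat.card G)).val) (k := j)
    fun ζ hζ => hσ ζ (by
      obtain ⟨c, hc⟩ := orderOf_dvd_natCard (x ^ (k : ZMod (Nat.card G)).val)
      rw [hc, pow_mul, hζ, one_pow])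
  refine h1.trans (congrArg χ ?_)
  rw [← pow_mul, pow_eq_pow_iff_modEq]
  refine Nat.ModEq.of_dvd (orderOf_dvd_natCard x) ?_
  rw [← ZMod.natCast_eq_natCast_iff]
  simp

/-- Burnside's lemma -/
theorem burnside_vanish {χ : G → ℂ} (hχ : IsIrrCharacter G χ) (g : G)
    (co : (𝒞[g]).index.Coprime (deg χ)) : χ g = 0 ∨ ‖χ g‖ = deg χ := by
  classical
  cases nonempty_fintype G
  haveI : NeZero (Nat.card G) := ⟨Nat.card_pos.ne'⟩
  have hc := IsIrr.isChar hχ
  have d0 : (deg χ : ℂ) ≠ 0 := by exact_mod_cast (IsIrr.deg_pos hχ).ne'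
  have h1 : IsIntegral ℤ (((𝒞[g]).index : ℂ) * χ g / deg χ) := by
    have := IsIrr.isIntegral_central hχ (f := fun x => if IsConj g x then 1 else 0)
      (fun x y => by
        have : IsConj g (y * x * y⁻¹) ↔ IsConj g x :=
          ⟨fun h => h.trans (isConj_iff.2 ⟨y⁻¹, by group⟩), fun h => h.trans (isConj_iff.2 ⟨y, rfl⟩)⟩
        simp only [this])
      (fun x => by split_ifs; exacts [isIntegral_one, isIntegral_zero])
    rw [← IsIrr.coe_deg hχ] at this
    convert this using 2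
    have e : (Finset.univ.filter (IsConj g)).card = (𝒞[g]).index := by
      have h2 := card_class_mul_card_centralizer g
      rw [← Subgroup.index_mul_card (𝒞[g])] at h2
      exact Nat.eq_of_mul_eq_mul_right Nat.card_pos h2
    rw [← e, ← nsmul_eq_mul, ← Finset.sum_const, Finset.sum_filter]
    refine Finset.sum_congr rfl fun x _ => ?_
    split_ifs with h
    · rw [one_mul, CF_isConj (IsIrr.mem_CF hχ) h]
    · rw [zero_mul]
  have h2 : IsIntegral ℤ (χ g / deg χ) := by
    obtain ⟨a, b, hab⟩ := Nat.isCoprime_iff_coprime.2 co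
    have e : χ g / deg χ = (a : ℂ) * (((𝒞[g]).index : ℂ) * χ g / deg χ) + b * χ g := by
      have : (a : ℂ) * (𝒞[g]).index + b * deg χ = 1 := by exact_mod_cast hab
      field_simp
      linear_combination (-χ g) * this
    rw [e]
    exact ((isIntegral_algebraMap (R := ℤ) (x := a)).mul h1).add
      ((isIntegral_algebraMap (R := ℤ) (x := b)).mul (IsChar.isIntegral hc g))
  refine or_iff_not_imp_left.2 fun h0 => ?_
  have hσ : ∀ k : (ZMod (Nat.card G))ˣ, ∃ σ : ℂ ≃+* ℂ,
      σ (χ g) = χ (g ^ (k : ZMod (Nat.card G)).val) := fun k => by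
    obtain ⟨σ, hσ⟩ := exists_aut_pow (NeZero.ne (Nat.card G)) (ZMod.val_coe_unit_coprime k)
    exact ⟨σ, IsChar.map_apply hc (σ : ℂ →+* ℂ) (g := g) fun ζ hζ => hσ ζ (by
      obtain ⟨c, hc⟩ := orderOf_dvd_natCard g
      rw [hc, pow_mul, hζ, one_pow])⟩
  obtain ⟨m, hm⟩ := prod_gen_int' (IsChar.mem_ZIrr hc) g
  have m0 : m ≠ 0 := by
    rintro rfl
    obtain ⟨k, -, hk⟩ := Finset.prod_eq_zero_iff.1 (hm.trans Int.cast_zero)
    obtain ⟨σ, e⟩ := hσ k
    exact h0 (σ.injective (by rw [e, hk, map_zero]))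
  have h3 : ((deg χ : ℤ) ^ Fintype.card (ZMod (Nat.card G))ˣ) ∣ m := by
    refine int_dvd_of_isIntegral_div (pow_ne_zero _ (by exact_mod_cast (IsIrr.deg_pos hχ).ne')) ?_
    rw [← hm]
    push_cast
    rw [← Finset.card_univ, ← Finset.prod_const, ← Finset.prod_div_distrib]
    refine IsIntegral.prod _ fun k _ => ?_
    obtain ⟨σ, e⟩ := hσ k
    have := h2.map (σ : ℂ →+* ℂ).toIntAlgHom
    rw [← e]
    simpa using this
  have h4 : ((deg χ : ℝ) ^ Fintype.card (ZMod (Nat.card G))ˣ) ≤ ‖(m : ℂ)‖ := by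
    have := Int.le_of_dvd (abs_pos.2 m0) ((dvd_abs _ _).2 h3)
    rw [Complex.norm_intCast]
    exact_mod_cast this
  by_contra hne
  have lt := (IsChar.norm_le hc g).lt_of_ne hne
  refine h4.not_gt ?_
  rw [← hm, norm_prod, ← Finset.card_univ, ← Finset.prod_const]
  refine Finset.prod_lt_prod (fun k _ => ?_) (fun k _ => IsChar.norm_le hc _) ⟨1, Finset.mem_univ _, ?_⟩
  · obtain ⟨σ, e⟩ := hσ k
    rw [← e, norm_pos_iff]
    exact fun f => h0 (σ.injective (by rw [f, map_zero]))
  · have e : g ^ ((1 : (ZMod (Nat.card G))ˣ) : ZMod (Nat.card G)).val = g ^ 1 := by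
      rw [pow_eq_pow_iff_modEq]
      refine Nat.ModEq.of_dvd (orderOf_dvd_natCard g) ?_
      rw [← ZMod.natCast_eq_natCast_iff]
      simp
    rwa [e, pow_one]

/-- A simple group with a class of prime power size is abelian. -/
theorem burnside_class [IsSimpleGroup G] {g : G} (hg : g ≠ 1) {p : ℕ} (hp : p.Prime)
    (h : PiNat {p} (𝒞[g]).index) : IsMulCommutative G := by
  classical
  by_contra nab
  have key : ∀ χ, IsIrrCharacter G χ → χ ≠ 1 → ∃ ω : ℂ, IsIntegral ℤ ω ∧ χ 1 * χ g = p * ω := by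
    intro χ hχ h1
    have hc := IsIrr.isChar hχ
    by_cases hd : p ∣ deg χ
    · obtain ⟨c, hc'⟩ := hd
      refine ⟨c * χ g, (isIntegral_algebraMap (R := ℤ) (x := (c : ℤ))).mul (IsChar.isIntegral hc g), ?_⟩
      rw [← IsIrr.coe_deg hχ, hc']; push_cast; ring
    rcases burnside_vanish hχ g (h.coprime ((piNat_compl_singleton_iff hp).2 hd)) with h0 | h0
    · exact ⟨0, isIntegral_zero, by rw [h0]; ring⟩
    exfalso
    have hψ := IsChar.mul hc (IsChar.conjFun hc)
    have e : ∀ x, (χ * conjFun χ) x = ((‖χ x‖ ^ 2 : ℝ) : ℂ) := fun x => by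
      rw [Pi.mul_apply, conjFun_apply, Complex.mul_conj, Complex.normSq_eq_norm_sq]
    have m : g ∈ cfker (χ * conjFun χ) := (IsChar.mem_cfker hψ).2 (by
      rw [e, e, h0, ← IsIrr.coe_deg hχ, Complex.norm_natCast])
    have t : cfker (χ * conjFun χ) = ⊤ :=
      ((cfker_normal (IsChar.mem_CF hψ)).eq_bot_or_eq_top).resolve_left fun f => hg (by
        rw [f] at m; exact m)
    have d1 : χ 1 = 1 := by
      cases nonempty_fintype G
      have h2 := IsIrr.dot_self hχ
      have e' : ∀ x, χ x * conj (χ x) = (χ * conjFun χ) 1 := fun x => eq_const_of_cfker_top t x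
      rw [dot_def, Finset.sum_congr rfl fun x _ => e' x, Finset.sum_const, Finset.card_univ, ← Nat.card_eq_fintype_card,
        nsmul_eq_mul, inv_mul_cancel_left₀ card_ne_zero, Pi.mul_apply, conjFun_apply,
        ← IsIrr.coe_deg hχ, Complex.conj_natCast] at h2
      rw [← IsIrr.coe_deg hχ]
      have : deg χ * deg χ = 1 := by exact_mod_cast h2
      rw [Nat.eq_one_of_mul_eq_one_right this, Nat.cast_one]
    obtain ⟨l, rfl⟩ := IsChar.exists_lin_of_deg_one hc d1
    have h3 := ((cfker_normal (IsChar.mem_CF hc)).eq_bot_or_eq_top).resolve_right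
      (IsIrr.cfker_ne_top hχ h1)
    have h4 := commutator_le_cfker_lin l
    rw [h3, le_bot_iff, ← der_top, der_eq_bot_iff, abelian_top_iff] at h4
    exact nab h4
  have s := sum_deg_mul_irr g
  rw [if_neg hg, ← Finset.add_sum_erase _ _ one_mem_irr] at s
  choose! ω hω using key
  have i : IsIntegral ℤ (∑ χ ∈ (irr G).erase 1, ω χ) := IsIntegral.sum _ fun χ hχ =>
    (hω χ (mem_irr.1 (Finset.mem_of_mem_erase hχ)) (Finset.ne_of_mem_erase hχ)).1
  rw [Finset.sum_congr rfl fun χ hχ =>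
    (hω χ (mem_irr.1 (Finset.mem_of_mem_erase hχ)) (Finset.ne_of_mem_erase hχ)).2, ← Finset.mul_sum] at s
  have p0 : (p : ℂ) ≠ 0 := by exact_mod_cast hp.ne_zero
  have := int_dvd_of_isIntegral_div (a := -1) (b := p) (by exact_mod_cast hp.ne_zero) (by
    convert i using 1
    push_cast
    rw [div_eq_iff p0]
    simp only [Pi.one_apply] at s
    linear_combination -s)
  exact hp.one_lt.ne' (by exact_mod_cast Int.eq_one_of_dvd_one (by positivity) (dvd_neg.1 this))

/-- **Burnside's `p^a q^b` theorem** -/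
theorem burnside_pq {p q : ℕ} (hp : p.Prime) (hq : q.Prime) {H : Subgroup G} (h : IsPiGrp {p, q} H) :
    Group.IsSolvable H := by
  induction hn : Nat.card H using Nat.strong_induction_on generalizing G with
  | _ n ih =>
  subst hn
  by_cases h0 : H = ⊥
  · exact sol_of_abelian (h0 ▸ inferInstance)
  obtain ⟨K, sK, mK⟩ := minNormal_exists h0 (Subgroup.le_normalizer (H := H))
  rcases sK.lt_or_eq with lt | rfl
  · exact sol_of_quot mK.norm (ih _ (card_quot_lt_of_normal ⟨sK, mK.norm⟩ mK.ne_bot) (h.quot K) rfl)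
      (ih _ (card_lt_of_lt lt) (h.of_le sK) rfl)
  haveI : Nontrivial K := (Subgroup.nontrivial_iff_ne_bot K).2 h0
  haveI : IsSimpleGroup K := ⟨fun N nN => by
    have := mK.eq_bot_or_eq (normalIn_map_subtype N).1 (normalIn_map_subtype N).2
    refine this.imp (fun e => ?_) fun e => ?_
    · rwa [Subgroup.map_eq_bot_iff_of_injective _ K.subtype_injective] at e
    · exact Subgroup.map_injective K.subtype_injective (e.trans (map_subtype_top K).symm)⟩
  by_cases hd : q ∣ Nat.card K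
  · obtain ⟨Q, sQ⟩ := sylow_exists hq (⊤ : Subgroup K)
    obtain ⟨g, hg, g1⟩ := exists_mem_ne_one (center_nil_ne_bot sQ.pGrp.nil
      (sQ.ne_bot' hq (by rwa [Subgroup.card_top])))
    refine sol_of_abelian (burnside_class g1 hp fun r hr hd => ?_)
    have h1 : Q ≤ 𝒞[g] := mem_cent_iff_le_cent_singleton.1 hg.2
    have h2 := hd.trans (Subgroup.index_dvd_of_le h1)
    rcases h r hr (h2.trans Q.index_dvd_card) with e | e
    · exact e
    · exact absurd (by rwa [Subgroup.relIndex_top_right, ← e]) (sQ.not_dvd_index hq)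
  · refine IsPGrp.sol (p := p) fun r hr hd' => ?_
    rcases h r hr hd' with e | e
    · exact e
    · exact absurd (e ▸ hd') hd

end CA.Chr
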